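import Mathlib
import Cfsg.Agent.Lib.J4L.Recog

/-!
# The isomorphism with the presented group, with its values on the generators
-/

set_option autoImplicit false
set_option maxRecDepth 100000

namespace H31.J4R
open Cfsg H15 H96.Geo Subgroup H75.J4
open H54 (Rels gen)
open H66.J4 (g4 gJ gN NJ)

theorem exists_hom' {G : Type*} [Group G] [Finite G] {g : ℕ → G} (h : Rels RJ4 g) :
    ∃ θ : Spor.J4 →* G, ∀ i, i < 4 → θ (g4 gJ i) = g i := by
  let e : Shrink.{0} G ≃* G := Shrink.mulEquiv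
  obtain ⟨θ, hθ⟩ := bnd4.hom relsJ4 genJ4 H66.J4.card_J4.ge (h.map e.symm.toMonoidHom)
  exact ⟨e.toMonoidHom.comp θ, fun i hi => by
    rw [MonoidHom.comp_apply, hθ i hi]; exact e.apply_symm_apply _⟩

variable {G : Type*} [Group G] [Finite G] [IsSimpleGroup G] (m : Md G)

/-- the dictionary between the presented group and the local coordinates -/
structure Dic (e : Spor.J4 ≃* G) (M : MM G) (ρ t : G) : Prop where
  cp : Cp m M
  tt : TT m ρ t
  om : M.c (pm Gom) = m.ω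
  rho : M.c (pm Gr) = ρ
  g0 : Commute (M.c (pm G0)) t
  ex : e (gJ 0) = M.c (pm X')
  ey : e (gJ 1) = M.c (pm Y')
  eu : e (gN gJ 2) = M.d (ofMask S')
  et : e (gJ 2) = t
  nj : NJ.map e.toMonoidHom = normalizer (m.V : Set G)

theorem exists_dic : ∃ e M ρ t, Dic m e M ρ t := by
  obtain ⟨ρ, t, T⟩ := exists_TT m
  obtain ⟨M, c, h1, h2, h3⟩ := T.exists_M2
  let g : ℕ → G := fun i => [M.c (pm X'), M.c (pm Y'), M.d (ofMask S')].getD i t
  obtain ⟨θ, e⟩ := exists_hom' (T.rels c h1 h2 h3 (g := g) rfl rfl rfl rfl)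
  have mem : ∀ i, i < 4 → g i ∈ θ.range := fun i hi => ⟨_, e i hi⟩
  have hN : normalizer (m.V : Set G) ≤ NJ.map θ :=
    c.V ▸ norm_le ⟨_, H54.mem_gen (gN gJ) (by norm_num : 0 < 3), e 0 (by norm_num)⟩
      ⟨_, H54.mem_gen (gN gJ) (by norm_num : 1 < 3), e 1 (by norm_num)⟩
      ⟨_, H54.mem_gen (gN gJ) (by norm_num : 2 < 3), e 2 (by norm_num)⟩
  have inj : Function.Injective θ := by
    rw [← MonoidHom.ker_eq_bot_iff]
    refine θ.normal_ker.eq_bot_or_eq_top.resolve_right fun h => ?_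
    obtain ⟨x, hx⟩ := mem 3 (by norm_num)
    have : θ x = 1 := MonoidHom.mem_ker.1 (h ▸ mem_top x)
    exact m.not_conj_one ((this.symm.trans hx : 1 = t) ▸ T.cj)
  have : IsSimpleGroup θ.range := (MonoidHom.ofInjective inj).symm.isSimpleGroup
  have hN' := hN.trans (map_le_range θ NJ)
  refine ⟨MulEquiv.ofBijective θ ⟨inj, MonoidHom.range_eq_top.1
    (eq_top_of_simple m _ (H_le hN' T.kt (mem 3 (by norm_num))) hN')⟩, M, ρ, t, c, T, h1, h2, h3,
    (congrArg θ (H66.Zip.evW_single gJ 0).symm).trans (e 0 (by norm_num)), (congrArg θ (H66.Zip.evW_single gJ 1).symm).trans (e 1 (by norm_num)), e 2 (by norm_num),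
    (congrArg θ (H66.Zip.evW_single gJ 2).symm).trans (e 3 (by norm_num)), (eq_of_le_of_card_ge hN ?_).symm⟩
  rw [card_map_of_injective inj, H66.J4.card_NJ, m.card_NV]
  norm_num

include m in
theorem card_G : Nat.card G = 86775571046077562880 := by
  obtain ⟨e⟩ := recog m
  exact (Nat.card_congr e.toEquiv).trans H66.J4.card_J4

/-- coset spaces correspond under an isomorphism -/
theorem exists_coset_equiv {A B : Type*} [Group A] [Group B] (e : A ≃* B) (N : Subgroup A) :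
    ∃ f : A ⧸ N ≃ B ⧸ N.map e.toMonoidHom, ∀ q : A ⧸ N,
      MulAction.orbit (N.map e.toMonoidHom) (f q) = f '' MulAction.orbit N q := by
  refine ⟨Quotient.congr e.toEquiv fun a b => ?_, fun q => ?_⟩
  · rw [QuotientGroup.leftRel_apply, QuotientGroup.leftRel_apply]
    refine ⟨fun h => ⟨_, h, by simp⟩, ?_⟩
    rintro ⟨x, hx, h⟩
    rwa [← e.injective (a₁ := x) (a₂ := a⁻¹ * b) (by simpa using h)]
  · obtain ⟨a, rfl⟩ := QuotientGroup.mk_surjective q
    ext y
    constructor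
    · rintro ⟨⟨_, n, hn, rfl⟩, rfl⟩
      exact ⟨((n * a : A) : A ⧸ N), ⟨⟨n, hn⟩, rfl⟩, congrArg (QuotientGroup.mk (s := N.map e.toMonoidHom)) (map_mul e n a)⟩
    · rintro ⟨_, ⟨n, rfl⟩, rfl⟩
      exact ⟨⟨e n, n, n.2, rfl⟩, (congrArg (QuotientGroup.mk (s := N.map e.toMonoidHom)) (map_mul e (n : A) a)).symm⟩

end H31.J4R
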