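import Mathlib
import Cfsg.Agent.Lib.J4L.Gen

/-!
# The exterior square of `F_2^5` and the automorphisms that preserve its decomposable elements
-/

set_option autoImplicit false
set_option maxRecDepth 100000

namespace H75.J4
open Cfsg H15 Subgroup Matrix
open H54 (band band_eq_true bimp bimp_eq_true bor bor_eq_true allL allL_iff anyL anyL_iff nth cntLt cntLt_eq tb tb_eq sel sel_eq)

abbrev M5 := Matrix (Fin 5) (Fin 5) (ZMod 2)
abbrev SL5 := Matrix.SpecialLinearGroup (Fin 5) (ZMod 2)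

/-- positions of the entries of an alternating matrix in its code -/
def posT : ℕ := 0xa98739a14581a62746a03520a
/-- the codes of the non-zero decomposable elements -/
def Zw : ℕ := 0x1020088002014004048020208004010128500000820500000000145000004105400880088004400401020202020101010000000000000000820541058205410548000000008412218400000000842121000088000000225500004400000011553000000000033003030000000003030300780088008700770087337700873376
/-- two matrices and their action on the codes -/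
def Wa : M5 := !![0, 0, 0, 0, 1; 1, 0, 0, 0, 0; 0, 1, 0, 0, 0; 0, 0, 1, 0, 0; 0, 0, 0, 1, 0]
def Wb : M5 := !![0, 0, 0, 0, 1; 1, 0, 0, 0, 0; 0, 1, 0, 0, 1; 0, 0, 1, 0, 0; 0, 0, 0, 1, 0]
def Fa : ℕ := 0x8020004002080100001010200040
def Fb : ℕ := 0x108022004002080100041010200040

theorem card_SL5 : Nat.card SL5 = 9999360 := by
  have := H10.card_SL_fin (F := ZMod 2) 5 (by norm_num)
  rw [Nat.card_zmod, show ∏ i : Fin 5, (2 ^ 5 - 2 ^ (i : ℕ)) = 9999360 by decide] at this
  exact (one_mul _).symm.trans this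

/-- the number of candidates for the image of the `i`-th basis vector -/
noncomputable def cand (n Z i : ℕ) : ℕ :=
  cntLt (fun x => band (Nat.ble (2 ^ i) x) (H54.allLt (fun y =>
    band (bimp (tb Z (Nat.xor x y)) (tb Z (Nat.xor (2 ^ i) y)))
      (bimp (tb Z (Nat.xor (2 ^ i) y)) (tb Z (Nat.xor x y)))) (2 ^ i))) (2 ^ n)

theorem EA.card_le_cand {G : Type*} [Group G] {n : ℕ} {f : ℕ → G} (E : EA n f) {P : G → Prop} {Z : ℕ}
    (hP : ∀ e, e < 2 ^ n → (P (f e) ↔ tb Z e = true)) {Γ : Subgroup (MulAut E.sub)}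
    (hΓ : ∀ α ∈ Γ, ∀ x : E.sub, P (α x) ↔ P x) : Nat.card Γ ≤ ∏ i ∈ Finset.range n, cand n Z i := by
  classical
  haveI : Finite E.sub := Nat.finite_of_card_ne_zero (by rw [E.card]; positivity)
  let S : ℕ → Subgroup (MulAut E.sub) := fun i =>
    { carrier := {α | α ∈ Γ ∧ ∀ x : E.sub, (∃ y, y < 2 ^ i ∧ (x : G) = f y) → α x = x}
      one_mem' := ⟨Γ.one_mem, fun _ _ => rfl⟩
      mul_mem' := fun a b => ⟨Γ.mul_mem a.1 b.1, fun x h => by rw [MulAut.mul_apply, b.2 x h, a.2 x h]⟩
      inv_mem' := fun {α} a => ⟨Γ.inv_mem a.1, fun x h => α.injective (by rw [MulAut.apply_inv_self, a.2 x h])⟩ }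
  have step : ∀ i, i < n → Nat.card (S i) ≤ cand n Z i * Nat.card (S (i + 1)) := fun i hi => by
    have l : 2 ^ i < 2 ^ n := Nat.pow_lt_pow_right (by norm_num) hi
    let b : E.sub := ⟨f (2 ^ i), E.mem l⟩
    rw [← (MulAction.stabilizer (S i) b).index_mul_card, MulAction.index_stabilizer]
    refine Nat.mul_le_mul ?_ ?_
    · rw [cand, cntLt_eq, ← Set.ncard_image_of_injective _ Subtype.val_injective]
      refine le_trans (Set.ncard_le_ncard (t := (Finset.image f _ : Finset G)) ?_) (by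
        rw [Set.ncard_coe_finset]; exact Finset.card_image_le)
      rintro _ ⟨_, ⟨α, rfl⟩, rfl⟩
      obtain ⟨x, hx, e⟩ := E.mem_sub.1 (α.1 b).2
      simp only [Finset.coe_image, Finset.coe_filter, Finset.mem_range, Set.mem_image, Set.mem_setOf_eq,
        band_eq_true, Nat.ble_eq, H54.allLt_iff, bimp_eq_true, Nat.xor_eq]
      refine ⟨x, ⟨hx, Nat.le_of_not_lt fun h => ?_, fun y hy => ?_⟩, e.symm⟩
      · have := α.1.injective (α.2.2 (α.1 b) ⟨x, h, e⟩)
        exact h.ne' ((E.eq_iff l hx).1 ((congrArg Subtype.val this).symm.trans e))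
      · have := hΓ _ α.2.1 (b * ⟨f y, E.mem (hy.trans l)⟩)
        rw [map_mul, α.2.2 ⟨f y, _⟩ ⟨y, hy, rfl⟩, coe_mul, coe_mul, e, ← E.add _ _ hx (hy.trans l),
          ← E.add _ _ l (hy.trans l), hP _ (Nat.xor_lt_two_pow hx (hy.trans l)),
          hP _ (Nat.xor_lt_two_pow l (hy.trans l))] at this
        exact ⟨this.1, this.2⟩
    · refine Nat.card_le_card_of_injective (fun α => ⟨α.1.1, α.1.2.1, ?_⟩) fun α β h =>
        Subtype.ext (Subtype.ext (Subtype.ext_iff.1 h :))
      rintro x ⟨y, hy, e⟩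
      rcases Nat.lt_or_ge y (2 ^ i) with h | h
      · exact α.1.2.2 x ⟨y, h, e⟩
      · have hy' : 2 ^ i ^^^ y < 2 ^ i := Nat.lt_pow_two_of_testBit _ fun j hj => by
          rw [Nat.testBit_xor, Nat.testBit_two_pow]
          rcases hj.eq_or_lt with rfl | hj
          · rw [Nat.testBit_of_two_pow_le_and_two_pow_add_one_gt h hy]; simp
          · rw [Nat.testBit_lt_two_pow (hy.trans_le (Nat.pow_le_pow_right (by norm_num) hj))]; simp [hj.ne]
        have : x = b * ⟨f (2 ^ i ^^^ y), E.mem (hy'.trans l)⟩ := Subtype.ext (by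
          rw [coe_mul, ← E.add _ _ l (hy'.trans l), ← Nat.xor_assoc, Nat.xor_self, Nat.zero_xor, e])
        rw [this, map_mul, α.1.2.2 ⟨f (2 ^ i ^^^ y), _⟩ ⟨_, hy', rfl⟩]
        exact congrArg (· * _) α.2
  have : ∀ k, k ≤ n → Nat.card Γ ≤ (∏ i ∈ Finset.range k, cand n Z i) * Nat.card (S k) := fun k hk => by
    induction k with
    | zero =>
      rw [Finset.prod_range_zero, one_mul]
      refine card_le_of_le fun α h => ⟨h, ?_⟩
      rintro x ⟨y, hy, e⟩
      rw [show x = 1 from Subtype.ext (by rw [e, show y = 0 by omega, E.zero, coe_one]), map_one]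
    | succ k ih => rw [Finset.prod_range_succ, mul_assoc]; exact (ih (by omega)).trans (Nat.mul_le_mul_left _ (step k hk))
  have e : S n = ⊥ := eq_bot_iff.2 fun α h => MulEquiv.ext fun x => h.2 x x.2
  simpa [e] using this n le_rfl

/-- the bit that holds an entry -/
def ps (i j : Fin 5) : ℕ := posT / 16 ^ (5 * i.val + j.val) % 16

/-- the alternating matrix with a given code -/
def al (e : ℕ) : M5 := Matrix.of fun i j => if e.testBit (ps i j) then 1 else 0

/-- the decomposable matrices -/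
def wdg (u v : Fin 5 → ZMod 2) : M5 := vecMulVec u v + vecMulVec v u

/-- the vector with a given code -/
def vc (u : ℕ) : Fin 5 → ZMod 2 := fun i => if u.testBit i then 1 else 0

/-- the code of a decomposable matrix -/
def wc (t : ℕ) : ℕ :=
  ∑ k : Fin 10, (wdg (vc (t / 32)) (vc (t % 32)) (![0, 2, 0, 0, 1, 0, 1, 1, 2, 3] k) (![1, 3, 2, 4, 3, 3, 2, 4, 4, 4] k)).val * 2 ^ k.val

theorem al_xor (a b : ℕ) : al (a ^^^ b) = al a + al b := by
  ext i j
  simp only [al, of_apply, Matrix.add_apply, Nat.testBit_xor]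
  cases a.testBit _ <;> cases b.testBit _ <;> decide

theorem al_zero : al 0 = 0 := by ext i j; simp [al]

theorem al_inj {a b : ℕ} (ha : a < 1024) (hb : b < 1024) (h : al a = al b) : a = b := by
  refine Nat.eq_of_testBit_eq fun k => ?_
  rcases Nat.lt_or_ge k 10 with hk | hk
  · obtain ⟨i, j, rfl⟩ := (by decide +kernel : ∀ k, k < 10 → ∃ i j, ps i j = k) k hk
    have := congrFun (congrFun h i) j
    simp only [al, of_apply] at this
    revert this
    cases a.testBit _ <;> cases b.testBit _ <;> decide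
  · rw [Nat.testBit_lt_two_pow (ha.trans_le (Nat.pow_le_pow_right (n := 2) (by norm_num) hk)),
      Nat.testBit_lt_two_pow (hb.trans_le (Nat.pow_le_pow_right (n := 2) (by norm_num) hk))]

theorem al_surj (Y : M5) : ∃ e, e < 1024 ∧ al e = Y + Yᵀ := by
  induction Y using Matrix.induction_on' with
  | h_zero => exact ⟨0, by norm_num, by simp [al_zero]⟩
  | h_add p q a b =>
    obtain ⟨a, ha, e⟩ := a
    obtain ⟨b, hb, e'⟩ := b
    exact ⟨a ^^^ b, Nat.xor_lt_two_pow (n := 10) ha hb, by rw [al_xor, e, e', transpose_add]; abel⟩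
  | h_std_basis i j x =>
    refine ⟨if x = 0 then 0 else 2 ^ ps i j % 1024, ?_⟩
    revert i j x
    decide +kernel

theorem al_eq : ∀ e, e < 1024 → ∃ Y : M5, al e = Y + Yᵀ := by
  refine xor_induction (n := 10) ⟨0, by simp [al_zero]⟩ (fun i hi => ?_) ?_
  · refine ⟨Matrix.of fun a b => if a < b then al (2 ^ i) a b else 0, ?_⟩
    revert i
    decide +kernel
  · rintro a b - - ⟨Y, e⟩ ⟨Y', e'⟩
    exact ⟨Y + Y', by rw [al_xor, e, e', transpose_add]; abel⟩

theorem vc_surj (u : Fin 5 → ZMod 2) : ∃ a, a < 32 ∧ u = vc a := by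
  rw [show u = ![u 0, u 1, u 2, u 3, u 4] by ext i; fin_cases i <;> rfl]
  generalize u 0 = a, u 1 = b, u 2 = c, u 3 = d, u 4 = e
  revert a b c d e
  decide +kernel

theorem wc_chk : H54.allLt (fun t => H54.force (wc t) fun c => band (Nat.blt c 1024)
    (band (decide (al c = wdg (vc (t / 32)) (vc (t % 32)))) (bor (Nat.beq c 0) (tb Zw c)))) 1024 = true := by
  decide +kernel

theorem Zw_iff {e : ℕ} (he : e < 1024) : tb Zw e = true ↔ al e ≠ 0 ∧ ∃ u v, al e = wdg u v := by
  have h := wc_chk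
  simp only [H54.allLt_iff, H54.force_eq, band_eq_true, bor_eq_true, Nat.blt_eq, Nat.beq_eq,
    decide_eq_true_iff] at h
  refine ⟨fun a => ⟨fun b => ?_, ?_⟩, fun ⟨a, u, v, b⟩ => ?_⟩
  · rw [al_inj he (by norm_num) (b.trans al_zero.symm)] at a
    exact absurd a (by decide +kernel)
  · have : tb (orL wc 1024) e = true := by
      rw [show orL wc 1024 = Nat.lor Zw (Nat.shiftLeft 1 0) by decide +kernel, H54.tb_lor_shift, a, Bool.true_or]
    obtain ⟨t, ht, rfl⟩ := orL_spec this
    exact ⟨_, _, (h t ht).2.1⟩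
  · obtain ⟨u, hu, rfl⟩ := vc_surj u
    obtain ⟨v, hv, rfl⟩ := vc_surj v
    have := h (32 * u + v) (by omega)
    rw [show (32 * u + v) / 32 = u by omega, show (32 * u + v) % 32 = v by omega, ← b] at this
    rw [← al_inj this.1 he this.2.1]
    exact this.2.2.resolve_left fun c => a (by rw [← this.2.1, c, al_zero])

theorem conj_wdg (M : M5) (u v : Fin 5 → ZMod 2) : M * wdg u v * Mᵀ = wdg (M *ᵥ u) (M *ᵥ v) := by
  simp only [wdg, mul_add, add_mul, mul_vecMulVec, vecMulVec_mul, vecMul_transpose]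

theorem eq_one_of_wdg {M : M5} (h : ∀ u v, M * wdg u v * Mᵀ = wdg u v) : M = 1 := by
  have k : ∀ i j a b, M a i * M b j + M a j * M b i = wdg (Pi.single i 1) (Pi.single j 1) a b := fun i j a b => by
    rw [← h, conj_wdg]; simp [wdg, vecMulVec_apply]
  have h0 : ∀ i a, a ≠ i → M a i = 0 := fun i a ha => by
    obtain ⟨j, j1, j2, j3, j4⟩ := (by decide +kernel : ∀ i a : Fin 5, a ≠ i → ∃ j : Fin 5,
      wdg (Pi.single i 1) (Pi.single j 1) i j = 1 ∧ wdg (Pi.single i 1) (Pi.single j 1) a i = 0 ∧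
      wdg (Pi.single i 1) (Pi.single j 1) a j = 0 ∧ True) i a ha
    rw [← k] at j1 j2 j3
    revert j1 j2 j3
    generalize M i i = p, M j j = q, M i j = r, M j i = s, M a i = t, M a j = w
    revert p q r s t w
    decide
  ext a i
  by_cases ha : a = i
  · subst ha
    obtain ⟨j, j1, j2⟩ := (by decide +kernel : ∀ i : Fin 5, ∃ j : Fin 5, i ≠ j ∧
      wdg (Pi.single i 1) (Pi.single j 1) i j = 1) a
    rw [← k, h0 j a j1] at j2
    rw [one_apply_eq]
    revert j2
    generalize M a a = p, M j j = q, M j a = s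
    revert p q s
    decide
  · rw [h0 i a ha, one_apply_ne ha]

theorem al_mv {M : M5} {F : ℕ} (h : ∀ i, i < 10 → mv F (2 ^ i) < 1024 ∧ al (mv F (2 ^ i)) = M * al (2 ^ i) * Mᵀ) :
    ∀ e, e < 1024 → mv F e < 1024 ∧ al (mv F e) = M * al e * Mᵀ :=
  xor_induction (n := 10) (by simp [mv_zero, al_zero]) h fun a b ha hb i j => by
    rw [mv_xor _ (by omega) (by omega), al_xor, al_xor, i.2, j.2, mul_add, add_mul]
    exact ⟨Nat.xor_lt_two_pow (n := 10) i.1 j.1, rfl⟩

theorem exists_rank_four {e : ℕ} (he : e < 1024) (h0 : e ≠ 0) (h : tb Zw e = false) :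
    ∃ M : SL5, al e = (M : M5) * al 3 * (M : M5)ᵀ := by
  have : H54.force (orbV [Id12, Fa, Fb] 3 21) (fun a => H54.allLt (fun v =>
      bor (Nat.beq v 0) (bor (tb Zw v) (tb a v))) 1024) = true := by decide +kernel
  simp only [H54.force_eq, H54.allLt_iff, bor_eq_true, Nat.beq_eq] at this
  have key : ∀ (M : SL5) (F : ℕ),
      (∀ i, i < 10 → mv F (2 ^ i) < 1024 ∧ al (mv F (2 ^ i)) = (M : M5) * al (2 ^ i) * (M : M5)ᵀ) → ∀ w, w < 4096 →
      (w < 1024 ∧ ∃ N : SL5, al w = (N : M5) * al 3 * (N : M5)ᵀ) →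
      mv F w < 1024 ∧ ∃ N : SL5, al (mv F w) = (N : M5) * al 3 * (N : M5)ᵀ := by
    rintro M F c w - ⟨hw, N, e⟩
    refine ⟨(al_mv c w hw).1, M * N, ?_⟩
    rw [(al_mv c w hw).2, e, show ((M * N : SL5) : M5) = (M : M5) * (N : M5) from rfl,
      transpose_mul]
    simp only [Matrix.mul_assoc]
  refine (orbV_spec (P := fun w => w < 1024 ∧ ∃ N : SL5, al w = (N : M5) * al 3 * (N : M5)ᵀ)
    ⟨by norm_num, 1, by simp⟩ ?_ 21 e (((this e he).resolve_left h0).resolve_left (by simp [h]))).2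
  simp only [List.forall_mem_cons, List.not_mem_nil, false_imp_iff, implies_true, and_true]
  exact ⟨key ⟨1, det_one⟩ _ (by decide +kernel), key ⟨Wa, by decide +kernel⟩ _ (by decide +kernel),
    key ⟨Wb, by decide +kernel⟩ _ (by decide +kernel)⟩

/-- the automorphisms that preserve the decomposable elements -/
theorem EA.wedge {G : Type*} [Group G] {f : ℕ → G} (E : EA 10 f) {P : G → Prop}
    (hP : ∀ e, e < 1024 → (P (f e) ↔ tb Zw e = true)) :
    ∃ ρ : SL5 →* MulAut E.sub, Function.Injective ρ ∧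
      (∀ α : MulAut E.sub, (∀ x : E.sub, P (α x) ↔ P x) → α ∈ ρ.range) ∧
      ∀ x : E.sub, x ≠ 1 → ¬ P x → ∃ M, ρ M ⟨f 3, E.mem (by norm_num)⟩ = x := by
  haveI : Finite E.sub := Nat.finite_of_card_ne_zero (by rw [E.card]; positivity)
  choose cd c1 c2 using fun x : E.sub => E.mem_sub.1 x.2
  have inj : ∀ x y, al (cd x) = al (cd y) → x = y := fun x y h =>
    Subtype.ext (by rw [c2, c2 y, al_inj (c1 x) (c1 y) h])
  have cf : ∀ e (he : e < 1024), cd ⟨f e, E.mem he⟩ = e := fun e he => (E.eq_iff (c1 _) he).1 (c2 _).symm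
  have mul : ∀ x y, al (cd (x * y)) = al (cd x) + al (cd y) := fun x y => by
    rw [← al_xor, (E.eq_iff (c1 _) (Nat.xor_lt_two_pow (c1 x) (c1 y))).1 (by
      rw [E.add _ _ (c1 x) (c1 y), ← c2, ← c2, ← c2, coe_mul])]
  have one : al (cd 1) = 0 := by simpa using mul 1 1
  have ex : ∀ (M : SL5) (x : E.sub), ∃ y, al (cd y) = (M : M5) * al (cd x) * (M : M5)ᵀ := fun M x => by
    obtain ⟨Y, e⟩ := al_eq _ (c1 x)
    obtain ⟨c, hc, e'⟩ := al_surj ((M : M5) * Y * (M : M5)ᵀ)
    exact ⟨⟨f c, E.mem hc⟩, by rw [cf c hc, e', e, mul_add, add_mul]; simp [Matrix.mul_assoc]⟩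
  choose sm hsm using ex
  letI : MulDistribMulAction SL5 E.sub :=
    { smul := sm
      one_smul := fun x => inj _ _ ((hsm 1 x).trans (by simp))
      mul_smul := fun M N x => inj (sm (M * N) x) (sm M (sm N x)) (by
        rw [hsm, hsm, hsm, show ((M * N : SL5) : M5) = (M : M5) * (N : M5) from rfl,
      transpose_mul]
        simp only [Matrix.mul_assoc])
      smul_one := fun M => inj _ _ ((hsm M 1).trans (by simp [one]))
      smul_mul := fun M x y => inj (sm M (x * y)) (sm M x * sm M y) (by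
        rw [hsm, mul, mul, hsm, hsm, mul_add, add_mul]) }
  let ρ := MulDistribMulAction.toMulAut SL5 E.sub
  have hρ : ∀ M x, al (cd (ρ M x)) = (M : M5) * al (cd x) * (M : M5)ᵀ := hsm
  have pi : ∀ x : E.sub, P x ↔ x ≠ 1 ∧ ∃ u v, al (cd x) = wdg u v := fun x => by
    rw [c2, hP _ (c1 x), Zw_iff (c1 x), ← one]
    exact and_congr_left' (not_congr ⟨inj _ _, fun h => by rw [h]⟩)
  have pr : ∀ M (x : E.sub), P x → P (ρ M x) := fun M x h => by
    obtain ⟨h1, u, v, e⟩ := (pi x).1 h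
    exact (pi _).2 ⟨by simpa using h1, _, _, by rw [hρ, e, conj_wdg]⟩
  have ri : Function.Injective ρ := (injective_iff_map_eq_one _).2 fun M h => Subtype.ext (eq_one_of_wdg fun u v => by
    obtain ⟨c, hc, e⟩ := al_surj (vecMulVec u v)
    have := hρ M ⟨f c, E.mem hc⟩
    rw [h, MulAut.one_apply, cf c hc, e, transpose_vecMulVec] at this
    exact this.symm)
  let Γ : Subgroup (MulAut E.sub) :=
    { carrier := {α | ∀ x : E.sub, P (α x) ↔ P x}
      one_mem' := fun _ => Iff.rfl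
      mul_mem' := fun a b x => (a _).trans (b x)
      inv_mem' := fun {α} a x => by rw [← a, MulAut.apply_inv_self] }
  have le : ρ.range ≤ Γ := by
    rintro _ ⟨M, rfl⟩ x
    exact ⟨fun h => by simpa using pr M⁻¹ _ h, pr M x⟩
  have := eq_of_le_of_card_ge le (by
    rw [← Nat.card_congr (ρ.ofInjective ri).toEquiv, card_SL5]
    exact (E.card_le_cand hP (Γ := Γ) fun α h => h).trans (by decide +kernel))
  refine ⟨ρ, ri, fun α h => this.ge h, fun x h1 h2 => ?_⟩
  obtain ⟨M, e⟩ := exists_rank_four (c1 x) (fun h => h1 (inj _ _ (by rw [h, one, al_zero])))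
    (by rw [c2, hP _ (c1 x)] at h2; simpa using h2)
  exact ⟨M, inj _ _ (by rw [hρ, cf 3 (by norm_num), e])⟩

end H75.J4
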