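import Mathlib
import Cfsg.Agent.Lib.J4L.Wdg

/-!
# The normaliser of the self-centralising `2^10` is `2^10 : L5(2)`
-/

set_option autoImplicit false
set_option maxRecDepth 100000

namespace H75.J4
open Cfsg H15 H96.Geo Subgroup
open H54 (band band_eq_true bimp bimp_eq_true bor bor_eq_true allL allL_iff anyL anyL_iff nth cntLt cntLt_eq tb tb_eq sel sel_eq)
open scoped Pointwise

/-- a plane disjoint from `BU2` -/
def B10 : ℕ := 0x95923f61e1110be049
/-- first generator of the dihedral group -/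
def wta : List ℕ := [0, 1, 0, 2, 1, 1, 0, 2, 1, 0, 0, 1, 0, 0]
def Xta : ℕ := 0xf5903e167267820cdefd9bd74360f44cc758
def Pta : ℕ := 0xbaaaf14a29a20855da0e0998d1cce0
/-- second generator of the dihedral group -/
def wtb : List ℕ := [1, 0, 2, 1, 0, 1, 1, 0, 0, 1, 0, 2, 1, 1, 1]
def Xtb : ℕ := 0x280dcece80b94e8de67065c1346f55eea469
def Ptb : ℕ := 0xbceb4b38a77c9ab6044381a2442540
/-- conjugating vectors for the slices -/
noncomputable def TE (j : ℕ) : ℕ := nth [0, 0x13005011017, 0x25003002007, 0x2006017014, 0x106105100104, 0x6014007016, 0x3010014015, 0x32011020002] j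
/-- the codes of the conjugates of `z` in `A` -/
def ZA : ℕ := 0x40400228008000040402200088011112020880004400000020200884004111110080104001200000240208048008421081010402100000040020208008484210081400102010000420002804080428181000410102000000042200808044281000000000000284e000000000000d7b1424222884884d7b1424222884884d7b0
/-- the basis of decomposable elements and its inverse -/
def TW : ℕ := 0x20030001200c00a005023004080040
def TWi : ℕ := 0x2003000020010780e4044004064014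

theorem ZA_chk : H54.allLt (fun e => bimp (tb ZA e) (sel (Nat.blt e 128)
    (bor (Nat.beq e 64) (Nat.beq (wt (supp (mv BU2 (e % 64)))) 2))
    (anyLt 16 fun r => H54.force (mv (TE (e / 128)) r) fun t =>
      band (Nat.beq (Nat.xor t (mv (XE (e / 128)) t)) (mv BU2 (e % 64)))
        (Nat.beq (cqe (XE (e / 128)) t 0) (e / 64 % 2))))) 1024 = true := by decide +kernel

/-- the degree of `t` -/
noncomputable def dgA (c t : ℕ) : ℕ :=
  cntLt (fun e => band (tb ZA (flip c e)) (tb ZA (flip c (Nat.xor e t)))) 1024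

theorem cA_chk : H54.allLt (fun c => bimp (Nat.beq (Nat.land c 23) 0) (bimp (Nat.beq (dgA c 128) (dgA c 64))
    (bimp (Nat.beq (dgA c 256) (dgA c 64)) (bimp (Nat.beq (dgA c 512) (dgA c 64)) (Nat.beq c 0))))) 256 = true := by
  decide +kernel

theorem TW_chk : ∀ e, e < 1024 → mv TW e < 1024 ∧ mv TWi e < 1024 ∧ mv TW (mv TWi e) = e ∧ mv TWi (mv TW e) = e ∧
    tb ZA (mv TW e) = tb Zw e := fun e he => by
  have := (H54.allLt_iff _ _).1 (show H54.allLt (fun e => band (Nat.blt (mv TW e) 1024) (band (Nat.blt (mv TWi e) 1024)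
    (band (Nat.beq (mv TW (mv TWi e)) e) (band (Nat.beq (mv TWi (mv TW e)) e)
      (band (bimp (tb ZA (mv TW e)) (tb Zw e)) (bimp (tb Zw e) (tb ZA (mv TW e)))))))) 1024 = true by
    decide +kernel) e he
  simp only [band_eq_true, bimp_eq_true, Nat.blt_eq, Nat.beq_eq] at this
  exact ⟨this.1, this.2.1, this.2.2.1, this.2.2.2.1, Bool.eq_iff_iff.2 ⟨this.2.2.2.2.1, this.2.2.2.2.2⟩⟩

namespace Md
variable {G : Type*} [Group G] [Finite G] [IsSimpleGroup G] (m : Md G)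

open Classical in
/-- the correction bits -/
noncomputable def cA : ℕ := maskF (fun j => decide (j ≠ 0 ∧ ¬ IsConj m.z (m.ahA j))) 8

theorem conj_cA {j : ℕ} (hj : j < 8) (h0 : j ≠ 0) : IsConj m.z (m.ahA j * m.z ^ cbit m.cA j) := by
  have := (m.FA.kr j hj).conj_iff (m.FA.out0 hj) (m.FA.X_sq hj)
  rw [cbit_eq, cA, testBit_maskF]
  split_ifs with a <;> simp_all [- isConj_iff]

theorem cbit_cA_zero : cbit m.cA 0 = 0 := by rw [cbit_eq, cA, testBit_maskF]; simp

omit [IsSimpleGroup G] in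
theorem elA_flip (c : ℕ) {e : ℕ} (he : e < 1024) : flip c e < 1024 ∧
    m.FA.el (flip c e) = m.FA.el e * m.z ^ cbit c (e / 128) := by
  have h := cbit_le c (e / 128)
  have := flip_spec c (show e < 2048 by omega)
  refine ⟨by omega, ?_⟩
  rw [this.2.2, m.FA.ea.add _ _ he (by omega)]
  interval_cases cbit c (e / 128)
  · rw [m.FA.ea.zero, pow_zero]
  · rw [m.FA.el_z, pow_one]

theorem conj_of_ZA {e : ℕ} (he : e < 1024) (h : tb ZA e = true) : IsConj m.z (m.FA.el (flip m.cA e)) := by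
  have := (H54.allLt_iff _ _).1 ZA_chk e he
  rw [(m.elA_flip _ he).2, Fr.el]
  rcases Nat.lt_or_ge e 128 with h1 | h1
  · simp only [bimp_eq_true, h, true_imp_iff, sel_eq, Nat.blt_eq, if_pos h1, bor_eq_true, Nat.beq_eq] at this
    rw [show e / 128 = 0 by omega, m.cbit_cA_zero, m.FA.ah_zero, pow_zero, mul_one, mul_one]
    rcases this with rfl | e1
    · simp [- isConj_iff, mv_zero, m.s_zero, IsConj.refl]
    · rw [← (HC_a (mv_lt _ _) e1 _).iff]; exact m.fusion.1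
  · simp only [bimp_eq_true, h, true_imp_iff, sel_eq, Nat.blt_eq, if_neg (Nat.not_lt.2 h1), anyLt_iff,
      H54.force_eq, band_eq_true, Nat.beq_eq, Nat.xor_eq] at this
    obtain ⟨r, -, i1, i2⟩ := this
    have hj : e / 128 < 8 := by omega
    have k := (m.FA.kr _ hj).s_conj_sk (m.FA.out0 hj) (mv_lt (TE (e / 128)) r) (w := 0) (by norm_num)
      (cbit m.cA (e / 128))
    refine (m.conj_cA hj (by omega)).trans (isConj_iff.2 ⟨m.s (mv (TE (e / 128)) r), ?_⟩)
    rw [m.s_zero, one_mul] at k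
    rw [m.zpow_comm (m.FA.kr _ hj).memH, k, Nat.zero_xor, i1, i2, mul_assoc _ (m.ahA _), m.zpow_comm (m.FA.kr _ hj).memH, Nat.xor_comm, m.zpow_xor]
    simp only [mul_assoc]

theorem conj_A_iff {e : ℕ} (he : e < 1024) : IsConj m.z (m.FA.el e) ↔ tb ZA (flip m.cA e) = true := by
  classical
  have ff : ∀ {e}, e < 1024 → flip m.cA (flip m.cA e) = e := fun h => flip_flip _ (by omega)
  refine ⟨fun h => ?_, fun h => by simpa [- isConj_iff, ff he] using m.conj_of_ZA (m.elA_flip _ he).1 h⟩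
  have c2 := m.FA.ea.ncard fun x => IsConj m.z x
  rw [show {x | x ∈ m.FA.ea.sub ∧ IsConj m.z x} = {x | x ∈ m.A ∧ IsConj m.z x} from rfl, m.card_ZA,
    show 2 ^ (7 + 3) = 1024 by norm_num] at c2
  have c3 : ((Finset.range 1024).filter fun e => tb ZA e = true).card = 155 := by
    rw [← cntLt_eq]; decide +kernel
  have := Finset.eq_of_subset_of_card_le (s := ((Finset.range 1024).filter fun e => tb ZA e = true).image (flip m.cA))
    (t := (Finset.range 1024).filter fun e => IsConj m.z (m.FA.el e)) (fun x hx => by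
      obtain ⟨y, hy, rfl⟩ := Finset.mem_image.1 hx
      rw [Finset.mem_filter, Finset.mem_range] at hy ⊢
      exact ⟨(m.elA_flip _ hy.1).1, m.conj_of_ZA hy.1 hy.2⟩) (by
      rw [Finset.card_image_of_injOn fun a ha b hb e => by
        rw [← ff (Finset.mem_range.1 (Finset.mem_filter.1 ha).1), e, ff (Finset.mem_range.1 (Finset.mem_filter.1 hb).1)]]
      omega)
  obtain ⟨y, hy, rfl⟩ := Finset.mem_image.1 (this.ge (Finset.mem_filter.2 ⟨Finset.mem_range.2 he, h⟩))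
  rw [Finset.mem_filter, Finset.mem_range] at hy
  rw [ff hy.1, hy.2]

omit [Finite G] [IsSimpleGroup G] in
theorem conj_conj_iff (g y : G) : IsConj m.z (g * y * g⁻¹) ↔ IsConj m.z y :=
  ⟨fun h => h.trans (isConj_iff.2 ⟨g, rfl⟩ : IsConj y _).symm, fun h => h.trans (isConj_iff.2 ⟨g, rfl⟩)⟩

theorem dgA_eq {t : ℕ} (ht : t < 1024) (h : IsConj m.z (m.FA.el t)) : dgA m.cA t = dgA m.cA 64 := by
  classical
  have k : ∀ t, t < 1024 → {y | y ∈ m.A ∧ IsConj m.z y ∧ IsConj m.z (y * m.FA.el t)}.ncard = dgA m.cA t :=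
    fun t ht => by
    have := m.FA.ea.ncard fun y => IsConj m.z y ∧ IsConj m.z (y * m.FA.el t)
    rw [show 2 ^ (7 + 3) = 1024 by norm_num] at this
    rw [dgA, cntLt_eq]
    refine this.trans (congrArg _ (Finset.filter_congr fun e he => ?_))
    rw [Finset.mem_range] at he
    rw [band_eq_true, ← m.FA.ea.add _ _ he ht, m.conj_A_iff he, m.conj_A_iff (Nat.xor_lt_two_pow (n := 10) he ht)]
    rfl
  obtain ⟨g, hg, e⟩ := m.orbit_A.ge ⟨m.FA.ea.mem ht, h⟩
  rw [← k t ht, ← k 64 (by norm_num), m.FA.el_z, ← e, ← Set.ncard_image_of_injective _ (MulAut.conj g⁻¹).injective]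
  congr 1
  ext y
  constructor
  · rintro ⟨y, ⟨h1, h2, h3⟩, rfl⟩
    refine ⟨(mem_normalizer_iff.1 (inv_mem hg) _).1 h1, by rwa [MulAut.conj_apply, m.conj_conj_iff], ?_⟩
    rwa [← m.conj_conj_iff g,
      show g * (MulAut.conj g⁻¹ y * m.z) * g⁻¹ = y * (g * m.z * g⁻¹) by rw [MulAut.conj_apply]; group]
  · rintro ⟨h1, h2, h3⟩
    refine ⟨g * y * g⁻¹, ⟨(mem_normalizer_iff.1 hg _).1 h1, by rwa [m.conj_conj_iff], ?_⟩,
      by rw [MulAut.conj_apply]; group⟩
    rwa [show g * y * g⁻¹ * (g * m.z * g⁻¹) = g * (y * m.z) * g⁻¹ by group, m.conj_conj_iff]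

theorem cA_eq : m.cA = 0 := by
  have := (H54.allLt_iff _ _).1 cA_chk m.cA (maskF_lt _ 8)
  simp only [bimp_eq_true, Nat.beq_eq] at this
  have a1 : IsConj m.z (m.ahA 1) := by
    simpa [- isConj_iff, ahA, pr4, xh] using (m.KR_wA1.DL (by decide +kernel) (by decide +kernel)).conj_z
  have a2 : IsConj m.z (m.ahA 2) := by
    simpa [- isConj_iff, ahA, pr4] using (m.KR_wE2.DL (by decide +kernel) (by decide +kernel)).conj_z
  have a4 : IsConj m.z (m.ahA 4) := by
    simpa [- isConj_iff, ahA, pr4] using (m.KR_wE4.DL (by decide +kernel) (by decide +kernel)).conj_z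
  have k : ∀ j, IsConj m.z (m.ahA j) → IsConj m.z (m.FA.el (128 * j)) := fun j h => by
    rwa [Fr.el, show 128 * j % 64 = 0 by omega, show 128 * j / 64 % 2 = 0 by omega,
      show 128 * j / 128 = j by omega, mv_zero, pow_zero, m.s_zero, mul_one, one_mul]
  refine this (Nat.eq_of_testBit_eq fun i => ?_) (m.dgA_eq (by norm_num) (k 1 a1))
    (m.dgA_eq (by norm_num) (k 2 a2)) (m.dgA_eq (by norm_num) (k 4 a4))
  rw [Nat.land_eq, Nat.testBit_and, Nat.zero_testBit, cA, testBit_maskF, Bool.and_eq_false_iff,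
    Bool.and_eq_false_iff, decide_eq_false_iff_not, decide_eq_false_iff_not]
  by_cases hi : i < 8
  · interval_cases i <;> simp [- isConj_iff, a1, a2, a4] <;> exact Or.inr (by decide)
  · exact Or.inl (Or.inl hi)

omit [IsSimpleGroup G] in
theorem EW : EA 10 fun e => m.FA.el (mv TW e) :=
  ⟨fun a b ha hb => by
    rw [mv_xor _ (by omega) (by omega)]; exact m.FA.ea.add _ _ (TW_chk a ha).1 (TW_chk b hb).1,
   fun a ha e => by rw [← (TW_chk a ha).2.2.2.1, m.FA.ea.inj _ (TW_chk a ha).1 e, mv_zero]⟩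

omit [IsSimpleGroup G] in
theorem EW_sub : m.EW.sub = m.A := by
  ext x
  refine ⟨?_, ?_⟩
  · rintro ⟨a, ha, rfl⟩; exact m.FA.ea.mem (TW_chk a ha).1
  · rintro ⟨a, ha, rfl⟩; exact ⟨_, (TW_chk a ha).2.1, congrArg _ (TW_chk a ha).2.2.1.symm⟩

theorem conj_W {e : ℕ} (he : e < 1024) : IsConj m.z (m.FA.el (mv TW e)) ↔ tb Zw e = true := by
  rw [m.conj_A_iff (TW_chk e he).1, m.cA_eq, ← (TW_chk e he).2.2.2.2, (flip_spec 0 (by
    have := (TW_chk e he).1; omega)).2.2, cbit_eq]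
  simp

/-- the action of `N(A)` on `A` -/
theorem exists_hom_A : ∃ φ : normalizer (m.A : Set G) →* SL5, Function.Surjective φ ∧
    φ.ker = m.A.subgroupOf _ ∧ ∃ b ∈ m.A, b ≠ 1 ∧ ¬ IsConj m.z b ∧
      ∀ x ∈ m.A, x ≠ 1 → ¬ IsConj m.z x → ∃ g ∈ normalizer (m.A : Set G), g * b * g⁻¹ = x := by
  have c := m.card_NA
  have c1 := m.card_A
  have c2 := m.FA.cent_eq
  change centralizer (m.A : Set G) = m.A at c2
  rw [← m.EW_sub] at c c1 c2 ⊢
  obtain ⟨ρ, h1, h2, h3⟩ := m.EW.wedge (P := IsConj m.z) fun e he => m.conj_W he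
  set ψ := m.EW.sub.normalizerMonoidHom
  have k : ψ.ker = m.EW.sub.subgroupOf _ := by rw [normalizerMonoidHom_ker, c2]
  have le : ψ.range ≤ ρ.range := by
    rintro _ ⟨g, rfl⟩
    exact h2 _ fun x => m.conj_conj_iff g x
  have := eq_of_le_of_card_ge le (by
    have := ψ.ker.index_mul_card
    rw [index_ker, k, Nat.card_congr (subgroupOfEquivOfLe le_normalizer).toEquiv, c, c1] at this
    rw [← Nat.card_congr (ρ.ofInjective h1).toEquiv, card_SL5]
    omega)
  refine ⟨(ρ.ofInjective h1).symm.toMonoidHom.comp (ψ.codRestrict _ fun g => le ⟨g, rfl⟩),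
    (ρ.ofInjective h1).symm.surjective.comp ?_, ?_, _, m.EW.mem (a := 3) (by norm_num),
    fun e => absurd (m.EW.inj 3 (by norm_num) e) (by norm_num),
    fun e => absurd ((m.conj_W (by norm_num)).1 e) (by decide +kernel), fun x hx x1 x2 => ?_⟩
  · rintro ⟨α, hα⟩
    obtain ⟨g, rfl⟩ := this.ge hα
    exact ⟨g, rfl⟩
  · rw [← k]
    ext g
    simp only [MonoidHom.mem_ker, MonoidHom.comp_apply, MulEquiv.coe_toMonoidHom, EmbeddingLike.map_eq_one_iff]
    exact Subtype.ext_iff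
  · obtain ⟨M, e⟩ := h3 ⟨x, hx⟩ (fun e => x1 (congrArg Subtype.val e)) x2
    obtain ⟨g, e'⟩ := this.ge ⟨M, rfl⟩
    exact ⟨g, g.2, congrArg Subtype.val ((congrArg (fun α : MulAut _ => α _) e').trans e)⟩

theorem orbit_A_b : ∃ b ∈ m.A, H54.clsIn (normalizer (m.A : Set G)) b =
    {x | x ∈ m.A ∧ x ≠ 1 ∧ ¬ IsConj m.z x} := by
  obtain ⟨-, -, -, b, h1, h2, h3, h4⟩ := m.exists_hom_A
  refine ⟨b, h1, Set.ext fun x => ⟨?_, fun h => h4 x h.1 h.2.1 h.2.2⟩⟩
  rintro ⟨g, hg, rfl⟩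
  exact ⟨(mem_normalizer_iff.1 hg _).1 h1, by rwa [Ne, conj_eq_one_iff], by rwa [m.conj_conj_iff]⟩

theorem card_BA : {x | x ∈ m.A ∧ x ≠ 1 ∧ ¬ IsConj m.z x}.ncard = 868 := by
  classical
  rw [← m.EW_sub, m.EW.ncard, ← show cntLt (fun e => band (Nat.blt 0 e) (bimp (tb Zw e) false)) 1024 = 868 by
    decide +kernel, cntLt_eq]
  refine congrArg _ (Finset.filter_congr fun e he => ?_)
  rw [Finset.mem_range] at he
  rw [band_eq_true, bimp_eq_true, m.conj_W he, Nat.blt_eq, ← m.EW.zero, Ne, m.EW.eq_iff he (by norm_num)]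
  simp [Nat.pos_iff_ne_zero]

theorem irred_A {W : Subgroup G} (h1 : W ≤ m.A) (h2 : normalizer (m.A : Set G) ≤ normalizer (W : Set G)) :
    W = ⊥ ∨ W = m.A := by
  refine or_iff_not_imp_left.2 fun h => le_antisymm h1 ?_
  obtain ⟨⟨x, hx⟩, x1⟩ := ne_bot_iff_exists_ne_one.1 h
  replace x1 : x ≠ 1 := fun e => x1 (Subtype.ext e)
  have cl : ∀ b y, x ∈ H54.clsIn (normalizer (m.A : Set G)) b → y ∈ H54.clsIn (normalizer (m.A : Set G)) b →
      y ∈ W := by
    rintro b _ ⟨g, hg, rfl⟩ ⟨k, hk, rfl⟩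
    have := (mem_normalizer_iff.1 (h2 (mul_mem hk (inv_mem hg))) _).1 hx
    rwa [show k * g⁻¹ * (g * b * g⁻¹) * (k * g⁻¹)⁻¹ = k * b * k⁻¹ by group] at this
  rw [← m.EW_sub]
  rintro _ ⟨a, ha, rfl⟩
  revert a
  refine xor_induction (m.EW.zero.symm ▸ W.one_mem :) (fun i hi => ?_) fun a b ha hb i j =>
    ((m.EW.add a b ha hb).symm ▸ W.mul_mem i j :)
  by_cases c : IsConj m.z x
  · have l : 2 ^ i < 1024 := Nat.pow_lt_pow_right (n := 10) (by norm_num) hi
    exact cl _ _ (m.orbit_A.ge ⟨h1 hx, c⟩) (m.orbit_A.ge ⟨m.EW_sub.le (m.EW.mem l), (m.conj_W l).2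
      ((by decide +kernel : ∀ i, i < 10 → tb Zw (2 ^ i) = true) i hi)⟩)
  · obtain ⟨b, -, e⟩ := m.orbit_A_b
    have k : ∀ u, u < 1024 ∧ u ≠ 0 ∧ tb Zw u = false → m.FA.el (mv TW u) ∈ W := fun u hu =>
      cl b _ (e.ge ⟨h1 hx, x1, c⟩) (e.ge ⟨m.EW_sub.le (m.EW.mem hu.1), fun e => hu.2.1 (m.EW.inj u hu.1 e),
        fun e => by simpa [hu.2.2] using (m.conj_W hu.1).1 e⟩)
    obtain ⟨s, -, hs, ht⟩ := (by decide +kernel : ∀ i, i < 10 → ∃ s, s < 64 ∧
      (s < 1024 ∧ s ≠ 0 ∧ tb Zw s = false) ∧ (s ^^^ 2 ^ i < 1024 ∧ s ^^^ 2 ^ i ≠ 0 ∧ tb Zw (s ^^^ 2 ^ i) = false)) i hi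
    have := W.mul_mem (k _ hs) (k _ ht)
    rwa [← m.EW.add _ _ hs.1 ht.1, ← Nat.xor_assoc, Nat.xor_self, Nat.zero_xor] at this

theorem exists_compl_A : ∃ B : Subgroup G, B ≤ normalizer (m.A : Set G) ∧ B ⊓ m.A = ⊥ ∧
    B ⊔ m.A = normalizer (m.A : Set G) ∧ Nonempty (B ≃* SL5) := by
  have a := (m.KR_of_wchk (w := wta) (p := Xta) (a := Pta) (by decide +kernel)).DL (by decide +kernel) (by decide +kernel)
  have b := (m.KR_of_wchk (w := wtb) (p := Xtb) (a := Ptb) (by decide +kernel)).DL (by decide +kernel) (by decide +kernel)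
  obtain ⟨Y, h1, h2, h3⟩ := m.FA.exists_compl (C := B10) (by decide +kernel) a.kr b.kr m.KR_cs a.sq b.sq m.cs_sq
    (((a.kr.mul b.kr).mul (a.kr.mul b.kr)).sq_eq_one (by decide +kernel) (by decide +kernel))
    (mul_inv_eq_iff_eq_mul.1 (a.conj' a m.KR_cs (by decide +kernel))).symm
    (mul_inv_eq_iff_eq_mul.1 (b.conj' b m.KR_cs (by decide +kernel))).symm
  set N := normalizer (m.A : Set G)
  obtain ⟨φ, hs, hk, -⟩ : ∃ φ : N →* SL5, Function.Surjective φ ∧ φ.ker = m.A.subgroupOf _ ∧ _ := m.exists_hom_A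
  have ck : Nat.card φ.ker = 2 ^ 10 := by
    rw [hk, Nat.card_congr (subgroupOfEquivOfLe le_normalizer).toEquiv, m.card_A]
  haveI : IsMulCommutative φ.ker := ⟨⟨fun a b => Subtype.ext (Subtype.ext
    (m.FA.ea.comm' (mem_subgroupOf.1 (hk.le a.2)) (mem_subgroupOf.1 (hk.le b.2))))⟩⟩
  have hA : Y.subgroupOf N ⊓ φ.ker = ⊥ := by
    rw [hk, eq_bot_iff]
    intro x hx
    have : (x : G) ∈ Y ⊓ m.A := ⟨hx.1, hx.2⟩
    rw [h2, mem_bot] at this
    exact Subtype.ext this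
  obtain ⟨C, hC⟩ := H3.gaschuetz_exists φ.ker (φ.ker ⊔ Y.subgroupOf N) le_sup_left (by
    have c1 : Nat.card ↥(φ.ker ⊔ Y.subgroupOf N) = 2 ^ 10 * 1024 := by
      rw [← ck, ← h3, ← Nat.card_congr (subgroupOfEquivOfLe h1).toEquiv]
      have := (φ.ker.subgroupOf (φ.ker ⊔ Y.subgroupOf N)).index_mul_card
      rw [← this, Nat.card_congr (subgroupOfEquivOfLe le_sup_left).toEquiv, mul_comm]
      congr 1
      rw [← relIndex, relIndex_sup_left, relIndex,
        (subgroupOf_eq_bot (H := φ.ker)).2 (disjoint_iff.2 (by rw [inf_comm, hA])), index_bot]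
    have c2 := (φ.ker ⊔ Y.subgroupOf N).index_mul_card
    rw [c1, m.card_NA] at c2
    rw [ck, show (φ.ker ⊔ Y.subgroupOf N).index = 9765 by omega]
    norm_num) _ hA rfl
  have bij : Function.Bijective (φ.comp C.subtype) := by
    refine (Nat.bijective_iff_injective_and_card _).2 ⟨(injective_iff_map_eq_one _).2 fun x hx => ?_, ?_⟩
    · have : (x : N) ∈ φ.ker ⊓ C := ⟨hx, x.2⟩
      rw [hC.disjoint.eq_bot, mem_bot] at this
      exact Subtype.ext this
    · have := hC.card_mul_card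
      rw [ck, m.card_NA] at this
      rw [card_SL5]; omega
  have e : (m.A.subgroupOf N).map N.subtype = m.A := by rw [subgroupOf_map_subtype, inf_eq_left.2 le_normalizer]
  refine ⟨C.map N.subtype, map_subtype_le _, ?_, ?_,
    ⟨(C.equivMapOfInjective _ N.subtype_injective).symm.trans (MulEquiv.ofBijective _ bij)⟩⟩
  · rw [← e, ← map_inf_eq _ _ _ N.subtype_injective, ← hk, inf_comm, hC.disjoint.eq_bot, Subgroup.map_bot]
  · conv_lhs => rw [← e]
    rw [← Subgroup.map_sup, ← hk, sup_comm, hC.sup_eq_top, ← MonoidHom.range_eq_map, range_subtype]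

end Md
end H75.J4
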